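import Cfsg.Agent.Lib.Helper6.BN2
import Cfsg.Agent.Lib.Helper18.BNCount

set_option autoImplicit false

/-! # Feit--Higman for (B,N)-pairs of rank 2 : common definitions (S1142 farm)

Conventions.  `zz s t j` is the alternating word `... t s` of length `j` (letters are added on the
LEFT): `zz 0 = 1, zz 1 = s, zz 2 = t s, zz 3 = s t s, ...`.  In `W = N/(B ⊓ N)` (dihedral of order
`2 m`) the map `j ↦ zz j` is `2m`-periodic and walks once around the Cayley graph (a `2m`-cycle). -/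

namespace Cfsg.Agent.Lib.Helper97.FH

open Cfsg Cfsg.Agent.Lib.Helper6.BN
open scoped Classical

variable {G : Type*} [Group G]

/-- the letter added at step `j` -/
def lett (s t : G) (j : ℕ) : G := if Even j then s else t

/-- alternating words, letters added on the left -/
def zz (s t : G) : ℕ → G
  | 0 => 1
  | (j + 1) => lett s t j * zz s t j

/-- the dihedral parametrisation of `W` -/
structure Dih (P : BNPair G) (s t : G) (m : ℕ) : Prop where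
  hs : s ∈ P.S
  ht : t ∈ P.S
  hne : s ≠ t
  two_le : 2 ≤ m
  index_eq : ((P.B ⊓ P.N).subgroupOf P.N).index = 2 * m
  rel_iff : ∀ j k, Rel P (zz s t j) (zz s t k) ↔ j ≡ k [MOD 2 * m]
  surj : ∀ n ∈ P.N, ∃ j < 2 * m, Rel P (zz s t j) n
  up_iff : ∀ j, Up P (lett s t j) (zz s t j) ↔ j % (2 * m) < m
  mul_s : ∀ j k, (j + k) % (2 * m) = 1 → Rel P (zz s t j * s) (zz s t k)
  inv_even : ∀ j k, Even j → (j + k) % (2 * m) = 0 → Rel P (zz s t j)⁻¹ (zz s t k)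

/-- the parameters `u = |BsB/B|`, `v = |BtB/B|` -/
structure Par (P : BNPair G) (s t : G) (u v : ℕ) : Prop where
  card_s : Nat.card (dc P s) = u * Nat.card P.B
  card_t : Nat.card (dc P t) = v * Nat.card P.B
  two_le_u : 2 ≤ u
  two_le_v : 2 ≤ v

/-- bi-invariance under a subgroup -/
def BiInv (H : Subgroup G) (φ : G → ℂ) : Prop := ∀ h ∈ H, ∀ h' ∈ H, ∀ g, φ (h * g * h') = φ g

/-- the operator `(A φ)(g) = ∑_{x ∈ K1} ∑_{y ∈ K2} φ (y x g)` -/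
noncomputable def opA [Fintype G] (K1 K2 : Subgroup G) (φ : G → ℂ) (g : G) : ℂ :=
  ∑ x : G, ∑ y : G, if x ∈ K1 ∧ y ∈ K2 then φ (y * x * g) else 0

/-- sizes of the levels (`|K1 y_i K1| = |K1| * kk i`) -/
def kk (m u v : ℕ) (i : ℕ) : ℕ :=
  if i = 0 then 1 else if 2 * i = m then v ^ i * u ^ (i - 1) else (u + 1) * v * (u * v) ^ (i - 1)

/-- the "distance-regular" structure of `K1 \ G / K1` (`K1 = P_s`, `K2 = P_t`, `β = |B|`,
`y i = zz (2 i)`). -/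
structure Levels [Fintype G] (K1 K2 : Subgroup G) (β m u v : ℕ) (y : ℕ → G) : Prop where
  y_zero : y 0 = 1
  cover : ∀ g, ∃ i, 2 * i ≤ m ∧ ∃ h ∈ K1, ∃ h' ∈ K1, g = h * y i * h'
  disj : ∀ i i', 2 * i ≤ m → 2 * i' ≤ m → (∃ h ∈ K1, ∃ h' ∈ K1, y i' = h * y i * h') → i = i'
  inv : ∀ i, 2 * i ≤ m → ∃ h ∈ K1, ∃ h' ∈ K1, (y i)⁻¹ = h * y i * h'
  sum_eq : ∀ φ, BiInv K1 φ →
    ∑ g, φ g = (β : ℂ) * (u + 1) * ∑ i ∈ Finset.range (m / 2 + 1), (kk m u v i : ℂ) * φ (y i)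
  ev_zero : ∀ φ, BiInv K1 φ →
    opA K1 K2 φ (y 0) = (β : ℂ) ^ 2 * ((u + 1) * (φ (y 0) + v * φ (y 1)))
  ev_mid : ∀ φ, BiInv K1 φ → ∀ i, 2 * (i + 1) + 2 ≤ m →
    opA K1 K2 φ (y (i + 1)) =
      (β : ℂ) ^ 2 * (φ (y i) + (u + v) * φ (y (i + 1)) + u * v * φ (y (i + 2)))
  ev_even : ∀ φ, BiInv K1 φ → ∀ h, m = 2 * (h + 1) →
    opA K1 K2 φ (y (h + 1)) = (β : ℂ) ^ 2 * ((u + 1) * (φ (y h) + v * φ (y (h + 1))))
  ev_odd : ∀ φ, BiInv K1 φ → ∀ h, m = 2 * (h + 1) + 1 →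
    opA K1 K2 φ (y (h + 1)) = (β : ℂ) ^ 2 * (φ (y h) + (v + u * (v + 1)) * φ (y (h + 1)))
  odd_eq : Odd m → u = v

/-- coefficients of the explicit eigenfunction -/
noncomputable def aC (u v : ℕ) (r ξ : ℂ) : ℂ := u * v * ξ + r * (v - 1) - v * ξ⁻¹

/-- the explicit eigenfunction on levels: `G_i = r^{-i} (a ξ^i - a' ξ^{-i})`, `a' = aC u v r ξ⁻¹` -/
noncomputable def Gs (u v : ℕ) (r ξ : ℂ) (i : ℕ) : ℂ :=
  r⁻¹ ^ i * (aC u v r ξ * ξ ^ i - aC u v r ξ⁻¹ * ξ⁻¹ ^ i)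

/-- the recurrences satisfied by an eigenfunction on levels (eigenvalue `μ'`) -/
structure Recs (m u v : ℕ) (μ' : ℂ) (F : ℕ → ℂ) : Prop where
  r0 : μ' * F 0 = (u + 1) * (F 0 + v * F 1)
  rmid : ∀ i, 2 * (i + 1) + 2 ≤ m → μ' * F (i + 1) = F i + (u + v) * F (i + 1) + u * v * F (i + 2)
  reven : ∀ h, m = 2 * (h + 1) → μ' * F (h + 1) = (u + 1) * (F h + v * F (h + 1))
  rodd : ∀ h, m = 2 * (h + 1) + 1 → μ' * F (h + 1) = F h + (v + u * (v + 1)) * F (h + 1)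

/-- the quantity `Ξ(x)` in the multiplicity formula -/
noncomputable def Xi (u v : ℕ) (x : ℝ) : ℝ :=
  v * (u + 1) ^ 2 + u * (v - 1) ^ 2 - u * v * x ^ 2 + Real.sqrt (u * v) * (u - 1) * (v - 1) * x

end Cfsg.Agent.Lib.Helper97.FH
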