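import Cfsg.Agent.Lib.Helper97.FH.Defs
import Cfsg.Agent.Lib.Helper16.FHAN1
import Cfsg.Agent.Lib.Helper16.FHAN5
import Cfsg.Agent.Lib.Helper77.FHAN2
import Cfsg.Agent.Lib.Helper77.FHAN3
import Cfsg.Agent.Lib.Helper77.FHAN4

set_option autoImplicit false

/-! # Feit--Higman farm, piece [AN6]: the multiplicity identity over the reals -/

namespace Cfsg.Agent.Lib.Helper97.FH

open Cfsg Cfsg.Agent.Lib.Helper6.BN Cfsg.Agent.Lib.Helper16.FH Cfsg.Agent.Lib.Helper77.FH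
open scoped Classical

variable {G : Type*} [Group G]

/-- [AN6] complex -> real bookkeeping -/
theorem aC_mul (u v : ℕ) {r ξ : ℂ} (hr : r ^ 2 = u * v) (hξ : ξ ≠ 0) :
    aC u v r ξ * aC u v r ξ⁻¹ = v * (v * (u + 1) ^ 2 + u * (v - 1) ^ 2 - u * v * (ξ + ξ⁻¹) ^ 2
      + r * (u - 1) * (v - 1) * (ξ + ξ⁻¹)) := by
  unfold aC
  rw [inv_inv]
  have h1 : ξ * ξ⁻¹ = 1 := mul_inv_cancel₀ hξ
  have e : (↑u * ↑v * ξ + r * (↑v - 1) - ↑v * ξ⁻¹) * (↑u * ↑v * ξ⁻¹ + r * (↑v - 1) - ↑v * ξ)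
      = (u:ℂ)^2 * v^2 * (ξ * ξ⁻¹) + r ^ 2 * (v - 1) ^ 2 + v ^ 2 * (ξ * ξ⁻¹)
        + u * v * r * (v - 1) * (ξ + ξ⁻¹) - u * v ^ 2 * (ξ ^ 2 + ξ⁻¹ ^ 2)
        - r * v * (v - 1) * (ξ + ξ⁻¹) := by ring
  have e2 : ξ ^ 2 + ξ⁻¹ ^ 2 = (ξ + ξ⁻¹) ^ 2 - 2 * (ξ * ξ⁻¹) := by ring
  rw [e, e2, h1, hr]
  ring

theorem core [Fintype G] {K1 K2 : Subgroup G} {β m u v : ℕ} {y : ℕ → G}
    (L : Levels K1 K2 β m u v y) (hβ : 0 < β) (hm : 2 ≤ m) (hu : 2 ≤ u) (hv : 2 ≤ v)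
    (j : ℕ) (hj : ¬ m ∣ 2 * j) :
    ∃ d : ℕ, (Nat.card G : ℝ) * u * v * (4 - (2 * Real.cos (2 * Real.pi * j / m)) ^ 2) =
      d * β * m * Xi u v (2 * Real.cos (2 * Real.pi * j / m)) := by
  set θ : ℝ := 2 * Real.pi * j / m with hθ
  set x : ℝ := 2 * Real.cos θ with hx
  set ξ : ℂ := Complex.exp (θ * Complex.I) with hξdef
  set r : ℂ := ((Real.sqrt (u * v) : ℝ) : ℂ) with hrdef
  have hm0 : (m : ℝ) ≠ 0 := by positivity
  have hmC : (m : ℂ) ≠ 0 := by exact_mod_cast (by omega : m ≠ 0)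
  have huC : (u : ℂ) ≠ 0 := by exact_mod_cast (by omega : u ≠ 0)
  have hvC : (v : ℂ) ≠ 0 := by exact_mod_cast (by omega : v ≠ 0)
  have hu1C : (u : ℂ) + 1 ≠ 0 := by exact_mod_cast (by omega : u + 1 ≠ 0)
  have hξ0 : ξ ≠ 0 := Complex.exp_ne_zero _
  have hξinv : ξ⁻¹ = Complex.exp (-(θ * Complex.I)) := by rw [hξdef, Complex.exp_neg]
  have hξm : ξ ^ m = 1 := by
    rw [hξdef, ← Complex.exp_nat_mul, Complex.exp_eq_one_iff]
    refine ⟨j, ?_⟩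
    rw [hθ]; push_cast; field_simp
  have hξ2 : ξ ^ 2 ≠ 1 := by
    intro h
    rw [hξdef, ← Complex.exp_nat_mul, Complex.exp_eq_one_iff] at h
    obtain ⟨n, hn⟩ := h
    apply hj
    have hpi : (Real.pi : ℂ) ≠ 0 := by exact_mod_cast Real.pi_ne_zero
    have h3 : (2 * j : ℂ) = n * m := by
      rw [hθ] at hn; push_cast at hn
      field_simp at hn
      have hI : Complex.I ≠ 0 := Complex.I_ne_zero
      linear_combination hn
    have h4 : ((2 * j : ℕ) : ℤ) = n * m := by exact_mod_cast h3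
    have : (m : ℤ) ∣ ((2 * j : ℕ) : ℤ) := ⟨n, by rw [h4]; ring⟩
    exact_mod_cast this
  have hxξ : ξ + ξ⁻¹ = (x : ℂ) := by
    rw [hξinv, hξdef, hx]
    push_cast
    rw [Complex.two_cos]
    ring_nf
  have hr2 : r ^ 2 = u * v := by
    rw [hrdef, ← Complex.ofReal_pow, Real.sq_sqrt (by positivity)]
    push_cast; ring
  have hodd : Odd m → (u = v ∧ r = u) := by
    intro ho
    have := L.odd_eq ho
    refine ⟨this, ?_⟩
    rw [hrdef, ← this, Real.sqrt_mul_self (by positivity)]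
    simp
  have hR := Gs_recs hm hu hv hr2 hodd hξm
  obtain ⟨f, hf1, hf2, hf3, hf4⟩ := lev_exists L hm _ _ hR
  have hG0 : Gs u v r ξ 0 = (u + 1) * v * (ξ - ξ⁻¹) := by
    unfold Gs aC; rw [inv_inv]; ring
  have hf10 : f 1 = (u + 1) * v * (ξ - ξ⁻¹) := by
    rw [← L.y_zero, hf4 0 (by omega), hG0]
  have hdiff : ξ - ξ⁻¹ ≠ 0 := by
    intro h
    apply hξ2
    have : ξ = ξ⁻¹ := sub_eq_zero.1 h
    calc ξ ^ 2 = ξ * ξ := by ring
      _ = ξ * ξ⁻¹ := by rw [← this]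
      _ = 1 := mul_inv_cancel₀ hξ0
  have hf1ne : f 1 ≠ 0 := by
    rw [hf10]; exact mul_ne_zero (mul_ne_zero hu1C hvC) hdiff
  have hconj : (starRingEnd ℂ) (aC u v r ξ) = aC u v r ξ⁻¹ := by
    have hc : (starRingEnd ℂ) ξ = ξ⁻¹ := by
      rw [hξinv, hξdef, ← Complex.exp_conj]
      congr 1
      simp
    unfold aC
    rw [inv_inv]
    simp only [map_add, map_sub, map_mul, map_natCast, map_one, map_inv₀, hc, inv_inv]
    rw [hrdef, Complex.conj_ofReal]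
  have haa : aC u v r ξ * aC u v r ξ⁻¹ ≠ 0 := by
    intro h
    have ha : aC u v r ξ = 0 := by
      rcases mul_eq_zero.1 h with h | h
      · exact h
      · rw [← hconj] at h
        simpa using h
    have ha' : aC u v r ξ⁻¹ = 0 := by rw [← hconj, ha]; simp
    have : Gs u v r ξ 0 = 0 := by unfold Gs; rw [ha, ha']; simp
    rw [hG0] at this
    exact (mul_ne_zero (mul_ne_zero hu1C hvC) hdiff) this
  have hsq : BiInv K1 (fun g => f g ^ 2) := by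
    intro h hh h' hh' g
    show f (h * g * h') ^ 2 = f g ^ 2
    rw [hf1 h hh h' hh' g]
  have hsum : ∑ k, f k ^ 2 = (β : ℂ) * (u + 1) *
      (- (m : ℂ) * ((u + 1) / u) * (aC u v r ξ * aC u v r ξ⁻¹)) := by
    rw [L.sum_eq _ hsq, ← Gs_sum hm hu hv hr2 hodd hξm hξ2]
    congr 1
    apply Finset.sum_congr rfl
    intro i hi
    have : 2 * i ≤ m := by
      have := Finset.mem_range.1 hi
      omega
    rw [hf4 i this]
  have hβC : (β : ℂ) ≠ 0 := by exact_mod_cast (by omega : β ≠ 0)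
  have hsumne : ∑ k, f k ^ 2 ≠ 0 := by
    rw [hsum]
    refine mul_ne_zero (mul_ne_zero hβC hu1C) (mul_ne_zero (mul_ne_zero (neg_ne_zero.2 hmC) ?_) haa)
    exact div_ne_zero hu1C huC
  obtain ⟨d, hd⟩ := idem_core K1 K2 _ f hf1 hf2 hf3
    (fun φ h1 h2 h3 => lev_uniq L hβ hm hu hv _ φ h1 h2 h3) hf1ne hsumne
  refine ⟨d, ?_⟩
  rw [hsum, hf10, aC_mul u v hr2 hξ0, hxξ] at hd
  have hsq2 : (ξ - ξ⁻¹) ^ 2 = (x : ℂ) ^ 2 - 4 := by
    rw [← hxξ]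
    have h1 : ξ * ξ⁻¹ = 1 := mul_inv_cancel₀ hξ0
    linear_combination (-4 : ℂ) * h1
  have key : (Nat.card G : ℂ) * u * v * (4 - (x : ℂ) ^ 2) = d * β * m *
      (v * (u + 1) ^ 2 + u * (v - 1) ^ 2 - u * v * (x : ℂ) ^ 2 + r * (u - 1) * (v - 1) * x) := by
    have h6 : (Nat.card G : ℂ) * ((u + 1) * v * (ξ - ξ⁻¹)) ^ 2
        = (Nat.card G : ℂ) * ((u + 1) ^ 2 * v ^ 2 * ((x : ℂ) ^ 2 - 4)) := by
      rw [← hsq2]; ring
    rw [h6] at hd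
    field_simp at hd
    linear_combination (-1 : ℂ) * hd
  unfold Xi
  have := key
  rw [hrdef] at this
  exact_mod_cast this

end Cfsg.Agent.Lib.Helper97.FH
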